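import Cfsg.Agent.H194.RC.SpEx
import Cfsg.Agent.H327.RC.Semi
import Cfsg.Agent.H711.RC.Three

/-!
# S3510, row D, `q` odd: assembly (helper194)

* `DeadLin`, `DeadFive` : the statements of the boxes D7b, D9;
* `row_psp_odd_of` : the row `PSp_{2m}(q)`, `q` odd, from these and the boxes D8 (`H327.RC.dead_semi`),
  D10 (`H711.RC.dead_three`).
-/

set_option autoImplicit false
open Cfsg

namespace Cfsg.Agent.H194.RC

open MulAction Module Cfsg.Agent.H106.RC Cfsg.Agent.H520.RC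

/-- box D7b: all lifts are linear -/
def DeadLin : Prop :=
  ∀ {F V : Type} [Field F] [Finite F] [AddCommGroup V] [Module F V] [FiniteDimensional F V]
    {B : LinearMap.BilinForm F V} {G : Type} [Group G] [Finite G] {Ω : Type} [Finite Ω] [Nonempty Ω] [MulAction G Ω]
    {N : Subgroup G} {ρ : ↥(Sp B) →* G} {ι : Type} [Finite ι] {x : ι → G} {r : ι → ℕ} {M : ι → SS B}
    (_ : SpEnv Ω N ρ) (_ : IH (Nat.card N)) (_ : (2 : F) ≠ 0) (_ : PF x r) (_ : Cov Ω x)
    (_ : ∀ i, Lf ρ (x i) (M i)) (_ : ∀ i, (M i).IsLin)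
    (_ : ∀ g : MulAut (alternatingGroup (Fin 6)), orderOf g ≠ 6 → RCe (alternatingGroup (Fin 6)) g)
    (_ : ¬ (Nat.card F = 3 ∧ finrank F V = 4))
    (_ : Nat.card F = 5 → finrank F V = 4 → ∀ i j, r i = 2 → r j = 3 → False), False

/-- box D9: `PSp_4(5)` with members of orders `2` and `3` -/
def DeadFive : Prop :=
  ∀ {F V : Type} [Field F] [Finite F] [AddCommGroup V] [Module F V] [FiniteDimensional F V]
    {B : LinearMap.BilinForm F V} {G : Type} [Group G] [Finite G] {Ω : Type} [Finite Ω] [Nonempty Ω] [MulAction G Ω]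
    {N : Subgroup G} {ρ : ↥(Sp B) →* G} {ι : Type} [Finite ι] {x : ι → G} {r : ι → ℕ} {M : ι → SS B}
    (_ : SpEnv Ω N ρ) (_ : IH (Nat.card N))
    (_ : ∀ g : MulAut (alternatingGroup (Fin 6)), orderOf g ≠ 6 → RCe (alternatingGroup (Fin 6)) g)
    (_ : PF x r) (_ : Cov Ω x) (_ : ∀ i, Lf ρ (x i) (M i)) (_ : Nat.card F = 5)
    (_ : finrank F V = 4) (i j : ι) (_ : r i = 2) (_ : r j = 3), False

theorem three_le_card {F : Type*} [Field F] [Fintype F] (h2 : (2 : F) ≠ 0) : 3 ≤ Fintype.card F := by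
  have h1 : 1 < Fintype.card F := Fintype.one_lt_card
  by_contra h
  have h3 : Fintype.card F = 2 := by omega
  have h4 := FiniteField.cast_card_eq_zero F
  rw [h3] at h4
  exact h2 (by exact_mod_cast h4)

/-- **`PSp_{2m}(q)`, `q` odd** -/
theorem row_psp_odd_of (hlin : DeadLin) (hfive : DeadFive)
    (hA6 : ∀ g : MulAut (alternatingGroup (Fin 6)), orderOf g ≠ 6 → RCe (alternatingGroup (Fin 6)) g)
    (S : Type) [Group S] [Finite S] (hS : IsSimpleGroup S) (hn : ¬ IsMulCommutative S)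
    {m : ℕ} (hm : 2 ≤ m) {F : Type} [Field F] [Fintype F] (h2 : (2 : F) ≠ 0) (e : S ≃* PSp m F)
    (hIH : IH (Nat.card S)) : RC S := by
  apply rc_of_noCov hS hn
  intro G _ _ Ω _ _ _ N hE eN ι _ x r hx hcov _
  obtain ⟨B, ρ, E⟩ := exists_spEnv hm (fun _ => three_le_card h2) (Or.inr h2) hE (eN.trans e)
  choose M hM using fun i => E.lift (x i)
  have hIH' : IH (Nat.card N) := by rwa [Nat.card_congr eN.toEquiv]
  by_cases hl : ∀ i, (M i).IsLin
  · by_cases hex : Nat.card F = 3 ∧ finrank F (Fin m ⊕ Fin m → F) = 4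
    · exact Cfsg.Agent.H711.RC.dead_three E hx hcov hex.1 hex.2
    by_cases h5 : Nat.card F = 5 ∧ finrank F (Fin m ⊕ Fin m → F) = 4 ∧ ∃ i j, r i = 2 ∧ r j = 3
    · obtain ⟨h5, h4, i, j, hi, hj⟩ := h5
      exact hfive E hIH' hA6 hx hcov hM h5 h4 i j hi hj
    · exact hlin E hIH' h2 hx hcov hM hl hA6 hex fun h6 h7 i j hi hj => h5 ⟨h6, h7, i, j, hi, hj⟩
  · push Not at hl
    obtain ⟨i0, hi0⟩ := hl
    exact Cfsg.Agent.H327.RC.dead_semi E hIH' h2 hx hcov hM i0 hi0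

end Cfsg.Agent.H194.RC
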